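import Cfsg.Agent.H540.E8C.End
import Cfsg.Agent.H332.E83.Card
import Cfsg.Agent.H114.E8L.Stmt

/-!
# S5925 box FixV: `F*(H)` has no non-zero fixed vector (helper943 for helper114, helper977)

`fixV` : `H` maximal in `E₈(3)`, `W ≠ 0` an `H`-stable space fixed pointwise by an element of order `11`: `121 ∣ |H|`.
-/

set_option autoImplicit false
set_option linter.unusedSectionVars false
set_option maxRecDepth 100000
set_option maxHeartbeats 400000

namespace Cfsg.Agent.H943.E83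

open Matrix Cfsg Cfsg.Lie Cfsg.Agent.H114.E8L

section Abs

variable {G V : Type*} [Group G]

/-- the pointwise stabiliser -/
def pst (A : G → V → V) (hA1 : ∀ v, A 1 v = v) (hAm : ∀ g h v, A (g * h) v = A g (A h v)) (W : Set V) : Subgroup G where
  carrier := {g | ∀ v ∈ W, A g v = v}
  one_mem' := fun v _ => hA1 v
  mul_mem' := fun {a b} ha hb v hv => by rw [hAm, hb v hv, ha v hv]
  inv_mem' := fun {a} ha v hv => by
    conv_lhs => rw [← ha v hv]
    rw [← hAm, inv_mul_cancel, hA1]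

theorem absW {A : G → V → V} (hA1 : ∀ v, A 1 v = v) (hAm : ∀ g h v, A (g * h) v = A g (A h v)) {H : Subgroup G}
    {W : Set V} (hHW : ∀ h ∈ H, ∀ v ∈ W, A h v ∈ W)
    (hM : ∀ K : Subgroup G, K ≠ ⊥ → (∀ g ∈ K, ∀ v ∈ W, A g v = v) → H ≤ Subgroup.normalizer (K : Set G) → K ≤ H)
    {x x' : G} (hx1 : x ≠ 1) (hxW : ∀ v ∈ W, A x v = v) (hx' : ∀ v ∈ W, A x' v = v) : x' ∈ H := by
  have hxK : x ∈ pst A hA1 hAm W := hxW
  refine hM (pst A hA1 hAm W) (fun h => ?_) (fun g hg => hg) (fun h hh => ?_) hx'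
  · rw [h, Subgroup.mem_bot] at hxK
    exact hx1 hxK
  · rw [Subgroup.mem_normalizer_iff]
    intro g
    constructor
    · intro hg v hv
      have h1 : A g (A h⁻¹ v) = A h⁻¹ v := hg _ (hHW _ (H.inv_mem hh) v hv)
      rw [hAm, hAm, h1, ← hAm, mul_inv_cancel, hA1]
    · intro hg v hv
      have h1 : A (h * g * h⁻¹) (A h v) = A h v := hg _ (hHW h hh v hv)
      have h2 : h * g * h⁻¹ * h = h * g := by group
      rw [← hAm, h2, hAm] at h1
      have h3 := congrArg (A h⁻¹) h1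
      rwa [← hAm, inv_mul_cancel, hA1, ← hAm, inv_mul_cancel, hA1] at h3

end Abs

/-- **Box FixV.** -/
theorem fixV (hP : BP) {H : Subgroup G3} (hH : IsCoatom H) {W : Submodule (ZMod 3) L3} (hW : W ≠ ⊥) {x : G3}
    (hx : x ^ 11 = 1) (hx1 : x ≠ 1) (hxW : ∀ v ∈ W, ac x v = v) (hHW : ∀ h ∈ H, ∀ v ∈ W, ac h v ∈ W) :
    121 ∣ Nat.card H := by
  obtain ⟨x', ho, hf⟩ := hP x hx hx1
  have h1 : x' ∈ H := by
    refine absW (A := H540.E8C.End.ac) (W := (W : Set L3)) H540.E8C.End.ac_one H540.E8C.End.ac_mul hHW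
      (fun K hK hKW hn => H540.E8C.End.le_of_norm hH hK (fun h => hW ?_) hn) hx1 hxW (fun v hv => hf v (hxW v hv))
    rw [Submodule.eq_bot_iff] at h ⊢
    exact fun v hv => h v fun g hg => hKW g hg v hv
  have h2 := Subgroup.orderOf_dvd_natCard H h1
  rwa [ho] at h2

end Cfsg.Agent.H943.E83
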